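import Mathlib
import Cfsg.Prelude.Def_Solvable

set_option autoImplicit false

/-!
# Lemma (T) for the primitive-pair argument (S3753)

`M` finite, `Q = O_p(M)`, `C ≤ O` normal in `M` (only `C`, `O` normal and "`O/C` is a `p`-group"
in the element-wise form are used), `X ≤ O` a `p`-subgroup with `[X, C] ≤ Q`.  Then `X ≤ Q`.
-/

namespace Cfsg.Agent.Lib.Helper66.PP

open scoped commutatorElement

/-- `O_p(M)` is a `p`-group (local copy). -/
theorem pCore_isPGroup_pp {M : Type*} [Group M] (p : ℕ) [Fact p.Prime] :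
    IsPGroup p (Cfsg.pCore p M) := by
  obtain ⟨P⟩ := (inferInstance : Nonempty (Sylow p M))
  refine P.isPGroup'.to_le (sSup_le ?_)
  rintro N ⟨hN, hp⟩
  have h1 : IsPGroup p ((P : Subgroup M) ⊔ N : Subgroup M) :=
    P.isPGroup'.to_sup_of_normal_right hp
  have h2 := P.is_maximal' h1 le_sup_left
  calc N ≤ (P : Subgroup M) ⊔ N := le_sup_right
    _ = P := h2

/-- `O_p(M)` is normal (local copy). -/
theorem pCore_normal_pp {M : Type*} [Group M] (p : ℕ) : (Cfsg.pCore p M).Normal :=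
  Subgroup.sSup_normal _ (fun _ hH => hH.1)

/-- **Lemma (T).**  `M` finite, `C`, `O` normal subgroups, every element of `O` has a `p`-power
in `C`, `X ≤ O` a `p`-subgroup with `[x, c] ∈ O_p(M)` for all `x ∈ X`, `c ∈ C`.  Then
`X ≤ O_p(M)`. -/
theorem lemT {M : Type*} [Group M] [Finite M] {p : ℕ} [Fact p.Prime]
    (C O X : Subgroup M) [hCn : C.Normal] [hOn : O.Normal]
    (hOC : ∀ x ∈ O, ∃ k : ℕ, x ^ p ^ k ∈ C)
    (hX : IsPGroup p X) (hXO : X ≤ O)
    (hXC : ∀ x ∈ X, ∀ c ∈ C, ⁅x, c⁆ ∈ Cfsg.pCore p M) : X ≤ Cfsg.pCore p M := by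
  classical
  have hQn : (Cfsg.pCore p M).Normal := pCore_normal_pp p
  have hQp : IsPGroup p (Cfsg.pCore p M) := pCore_isPGroup_pp p
  set Q := Cfsg.pCore p M with hQ
  let N : Subgroup M :=
    { carrier := {x | x ∈ O ∧ ∀ c ∈ C, ⁅x, c⁆ ∈ Q}
      one_mem' := ⟨O.one_mem, fun c _ => by rw [commutatorElement_one_left]; exact Q.one_mem⟩
      mul_mem' := by
        rintro x y ⟨hx, hx'⟩ ⟨hy, hy'⟩
        refine ⟨O.mul_mem hx hy, fun c hc => ?_⟩
        have : ⁅x * y, c⁆ = x * ⁅y, c⁆ * x⁻¹ * ⁅x, c⁆ := by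
          simp only [commutatorElement_def]; group
        rw [this]
        exact Q.mul_mem (hQn.conj_mem _ (hy' c hc) x) (hx' c hc)
      inv_mem' := by
        rintro x ⟨hx, hx'⟩
        refine ⟨O.inv_mem hx, fun c hc => ?_⟩
        have : ⁅x⁻¹, c⁆ = x⁻¹ * (⁅x, c⁆)⁻¹ * x⁻¹⁻¹ := by
          simp only [commutatorElement_def]; group
        rw [this]
        exact hQn.conj_mem _ (Q.inv_mem (hx' c hc)) x⁻¹ }
  have hNn : N.Normal := by
    refine ⟨fun x hx m => ?_⟩
    obtain ⟨hxO, hx'⟩ := hx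
    refine ⟨hOn.conj_mem x hxO m, fun c hc => ?_⟩
    have : ⁅m * x * m⁻¹, c⁆ = m * ⁅x, m⁻¹ * c * m⁻¹⁻¹⁆ * m⁻¹ := by
      simp only [commutatorElement_def]; group
    rw [this]
    exact hQn.conj_mem _ (hx' _ (hCn.conj_mem c hc m⁻¹)) m
  have hXN : X ≤ N := fun x hx => ⟨hXO hx, hXC x hx⟩
  obtain ⟨P, hP⟩ := (hX.comap_subtype (K := N) : IsPGroup p (X.subgroupOf N)).exists_le_sylow
  -- `Q ∩ N ≤ P`
  have hQP : Q.subgroupOf N ≤ (P : Subgroup N) := by
    have hp' : IsPGroup p (Q.subgroupOf N) := hQp.comap_subtype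
    have h1 : IsPGroup p ((P : Subgroup N) ⊔ Q.subgroupOf N : Subgroup N) :=
      P.isPGroup'.to_sup_of_normal_right hp'
    have h2 := P.is_maximal' h1 le_sup_left
    calc Q.subgroupOf N ≤ (P : Subgroup N) ⊔ Q.subgroupOf N := le_sup_right
      _ = P := h2
  -- `Z := C ∩ N` normalizes `P`
  have hZK : C.subgroupOf N ≤ Subgroup.normalizer ((P : Subgroup N) : Set N) := by
    have key : ∀ z : N, z ∈ C.subgroupOf N → ∀ t : N, t ∈ (P : Subgroup N) →
        z * t * z⁻¹ ∈ (P : Subgroup N) := by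
      intro z hz t ht
      have h1 : z * t * z⁻¹ * t⁻¹ ∈ Q.subgroupOf N := by
        rw [Subgroup.mem_subgroupOf]
        have h2 := t.2.2 (z : M) (Subgroup.mem_subgroupOf.mp hz)
        have : ((z * t * z⁻¹ * t⁻¹ : N) : M) = (⁅(t : M), (z : M)⁆)⁻¹ := by
          simp only [commutatorElement_def, Subgroup.coe_mul, Subgroup.coe_inv]; group
        rw [this]
        exact Q.inv_mem h2
      have h3 := (P : Subgroup N).mul_mem (hQP h1) ht
      simpa using h3
    intro z hz
    rw [Subgroup.mem_normalizer_iff]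
    intro t
    refine ⟨key z hz t, fun h => ?_⟩
    have := key z⁻¹ ((C.subgroupOf N).inv_mem hz) _ h
    simpa [mul_assoc] using this
  -- index argument
  have hZp : IsPGroup p (N ⧸ C.subgroupOf N) := by
    intro g
    induction g using QuotientGroup.induction_on with
    | H n =>
      obtain ⟨k, hk⟩ := hOC n n.2.1
      refine ⟨k, ?_⟩
      rw [← QuotientGroup.mk_pow, QuotientGroup.eq_one_iff, Subgroup.mem_subgroupOf]
      simpa using hk
  obtain ⟨n, hn⟩ := IsPGroup.iff_card.mp hZp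
  have hidx : (C.subgroupOf N).index = p ^ n := by rw [Subgroup.index, hn]
  have hK1 : (Subgroup.normalizer ((P : Subgroup N) : Set N)).index ∣ p ^ n :=
    hidx ▸ Subgroup.index_dvd_of_le hZK
  have hK2 : (Subgroup.normalizer ((P : Subgroup N) : Set N)).index ∣ (P : Subgroup N).index :=
    Subgroup.index_dvd_of_le Subgroup.le_normalizer
  have hPidx : ¬ p ∣ (P : Subgroup N).index := P.not_dvd_index
  have hK : Subgroup.normalizer ((P : Subgroup N) : Set N) = ⊤ := by
    rw [← Subgroup.index_eq_one]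
    obtain ⟨j, -, hj⟩ := (Nat.dvd_prime_pow Fact.out).mp hK1
    rcases Nat.eq_zero_or_pos j with rfl | hjpos
    · simpa using hj
    · exfalso
      apply hPidx
      have : p ∣ (Subgroup.normalizer ((P : Subgroup N) : Set N)).index := by
        rw [hj]; exact dvd_pow_self p hjpos.ne'
      exact this.trans hK2
  have hPn : (P : Subgroup N).Normal := Subgroup.normalizer_eq_top_iff.mp hK
  have hPc : (P : Subgroup N).Characteristic := P.characteristic_of_normal hPn
  have hPM : ((P : Subgroup N).map N.subtype).Normal := ConjAct.normal_of_characteristic_of_normal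
  have hPle : (P : Subgroup N).map N.subtype ≤ Q := le_sSup ⟨hPM, P.isPGroup'.map _⟩
  intro x hx
  apply hPle
  exact ⟨⟨x, hXN hx⟩, hP (Subgroup.mem_subgroupOf.mpr hx), rfl⟩

end Cfsg.Agent.Lib.Helper66.PP
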